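import Cfsg.Agent.Lib.Lead.BrHalfDStmt

/-!
# S4504, piece DBridge: from the reduction and part C to the setting of part D
-/

set_option autoImplicit false

namespace Cfsg.Agent.Lib.Helper68.BrDDBridge

open Cfsg Cfsg.Agent.Lib.Lead
open scoped ComplexConjugate

universe u

theorem main (hSyl : BrHalf.SylTransfer.{u}) (hPerDiff : BrHalf.PerDiff) :
    BrHalf.DBridge.{u} := by
  intro G _ _ p _ hdiv hsq hnn χ hχ hfaith P _ hperf c hc hn
  have hp : p.Prime := Fact.out
  have hp5 : 5 ≤ p := c.hp5
  -- `|P| = p`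
  have hP : Nat.card (P : Subgroup G) = p := by
    have h1 : Nat.card (P : Subgroup G) = p ^ (Nat.card G).factorization p :=
      P.card_eq_multiplicity
    have hG0 : Nat.card G ≠ 0 := Nat.card_pos.ne'
    have h2 : 1 ≤ (Nat.card G).factorization p :=
      (Nat.Prime.pow_dvd_iff_le_factorization hp hG0).1 (by rw [pow_one]; exact hdiv)
    have h3 : ¬ 2 ≤ (Nat.card G).factorization p := fun h =>
      hsq ((Nat.Prime.pow_dvd_iff_le_factorization hp hG0).2 h)
    have h4 : (Nat.card G).factorization p = 1 := by omega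
    rw [h4, pow_one] at h1
    exact h1
  have hnnP : ¬ (P : Subgroup G).Normal := fun h => hnn _ h hP
  -- the number of Sylow subgroups
  have hnG : Nat.card (Sylow p G) = p + 1 := by
    have h2 : Nat.card (Sylow p G) ≡ 1 [MOD p] := card_sylow_modEq_one p G
    have h3 : Nat.card (Sylow p G) ≠ 1 := by
      intro h
      apply hnnP
      haveI : Subsingleton (Sylow p G) := (Nat.card_eq_one_iff_unique.1 h).1
      exact Sylow.normal_of_subsingleton P
    have h4 : Nat.card (Sylow p G) ≤ p + 1 := by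
      rw [← hSyl p P]; exact hn
    have h6 : Nat.card (Sylow p G) % p = 1 % p := h2
    rw [Nat.mod_eq_of_lt (by omega : 1 < p)] at h6
    have h7 := Nat.div_add_mod (Nat.card (Sylow p G)) p
    rw [h6] at h7
    generalize Nat.card (Sylow p G) / p = q at h7
    rcases Nat.eq_zero_or_pos q with hq | hq
    · subst hq; omega
    · have h8 : p ≤ p * q := Nat.le_mul_of_pos_right p hq
      omega
  -- the element `x`
  have hxo : orderOf (c.x : G) = p := by
    rw [Subgroup.orderOf_coe]
    have h1 : orderOf c.x ∣ p := by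
      have h2 : orderOf (⟨c.x, c.hx⟩ : (c.P : Subgroup ↥(BrHalf.nc P))) ∣
          Nat.card (c.P : Subgroup ↥(BrHalf.nc P)) := orderOf_dvd_natCard _
      rw [Subgroup.orderOf_mk, c.hP] at h2
      exact h2
    rcases (Nat.dvd_prime hp).1 h1 with h | h
    · exact absurd (orderOf_eq_one_iff.1 h) c.hx1
    · exact h
  -- a non-square exponent
  obtain ⟨a, ha⟩ : ∃ a : ZMod p, ¬ IsSquare a := FiniteField.exists_nonsquare (by
    rw [ZMod.ringChar_zmod_n]; omega)
  have hk : ¬ IsSquare ((a.val : ℕ) : ZMod p) := by rwa [ZMod.natCast_zmod_val]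
  have hk0 : ¬ p ∣ a.val := by
    intro h
    apply hk
    rw [(ZMod.natCast_eq_zero_iff _ _).2 h]
    exact IsSquare.zero
  have hval : ∀ j : ℕ, χ ((c.x : G) ^ j) = BrHalf.per p c.ζ j := fun j =>
    (congrFun hc (c.x ^ j)).symm.trans (c.hres j)
  have hkne : χ ((c.x : G) ^ a.val) ≠ χ (c.x : G) := by
    have h1 := hval a.val
    have h2 := hval 1
    rw [pow_one] at h2
    rw [h1, h2]
    intro heq
    have h3 := hPerDiff p (by omega) c.ζ c.hζ 1 a.val
      (fun h => absurd (Nat.le_of_dvd one_pos h) (by omega)) hk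
    rw [one_mul, heq, sub_self, zero_mul] at h3
    have h4 : (p : ℂ) ≠ 0 := Nat.cast_ne_zero.2 (by omega)
    exact h4 h3.symm
  have hirr : IsIrrCharacter ↥(BrHalf.nc P) (fun g : ↥(BrHalf.nc P) => χ (g : G)) := by
    have h := c.hξ
    rw [hc] at h
    exact h
  exact ⟨{ hp5 := hp5, P := P, hP := hP, hnn := hnnP, hn := hnG, χ := χ, hχ := hχ,
           hfaith := hfaith, hirr := hirr, hperf := hperf, x := (c.x : G), hx := hxo,
           k := a.val, hk0 := hk0, hk := hkne }, rfl⟩

end Cfsg.Agent.Lib.Helper68.BrDDBridge
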